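import Cfsg.Agent.H670.Hg.Cls
import Cfsg.Agent.Blocks.Elementary

/-!
# Membership in the principal block by the central characters (helper300)

`mem_principal_of_congr`: `ω_χ(y) ≡ |K_y|` for the `p`-regular `y` with `p ^ (a - h) ∣ |C(y)|`.
-/

set_option autoImplicit false

open Cfsg Subgroup

namespace Cfsg.Agent.H300.HT

universe u

variable {G : Type u} [Group G] {p : ℕ} {M : Ideal AlgInt}

theorem centralChar_mem [Finite G] [Fact p.Prime] (hM : IsPModular p M) (χ : IrrCharacter G) {y : G}
    (hy : ¬ p ^ ((Nat.card G).factorization p - (charDegree (χ : G → ℂ)).factorization p) ∣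
      Nat.card (centralizer ({y} : Set G))) : MemLocalIdeal M (centralChar (χ : G → ℂ) y) := by
  have hp : p.Prime := Fact.out
  have hMp : M.IsPrime := hM.2.1.isPrime
  set d := charDegree (χ : G → ℂ) with hd
  have hd0 : 0 < d := Blocks.Basic.charDegree_pos χ.2
  have h1 := (centralizer ({y} : Set G)).card_mul_index
  have hC0 : Nat.card (centralizer ({y} : Set G)) ≠ 0 := Nat.card_pos.ne'
  have hi0 : (centralizer ({y} : Set G)).index ≠ 0 := Subgroup.index_ne_zero_of_finite
  have h2 : (Nat.card (centralizer ({y} : Set G))).factorization p + (centralizer ({y} : Set G)).index.factorization p =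
      (Nat.card G).factorization p := by
    rw [← h1, Nat.factorization_mul hC0 hi0, Finsupp.add_apply]
  have h3 : ¬ (Nat.card G).factorization p - d.factorization p ≤
      (Nat.card (centralizer ({y} : Set G))).factorization p := fun h =>
    hy ((Nat.Prime.pow_dvd_iff_le_factorization hp hC0).2 h)
  have h4 : p ^ (d.factorization p + 1) ∣ (centralizer ({y} : Set G)).index :=
    (Nat.Prime.pow_dvd_iff_le_factorization hp hi0).2 (by omega)
  obtain ⟨k, hk⟩ := h4
  obtain ⟨m, hm⟩ := Nat.ordProj_dvd d p
  have hm' : ¬ p ∣ m := by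
    rintro ⟨t, rfl⟩
    have h5 : p ^ (d.factorization p + 1) ∣ d := ⟨t, by rw [pow_succ, mul_assoc]; exact hm⟩
    have h6 := (Nat.Prime.pow_dvd_iff_le_factorization hp hd0.ne').1 h5
    omega
  have hpc : (p : ℂ) ^ d.factorization p ≠ 0 := pow_ne_zero _ (by exact_mod_cast hp.ne_zero)
  have hmc : (m : ℂ) ≠ 0 := by
    intro h
    apply hm'
    rw [show m = 0 from by exact_mod_cast h]
    exact dvd_zero p
  have h5 : centralChar (χ : G → ℂ) y = (((p * k : ℕ) : ℂ) * (χ : G → ℂ) y) * (m : ℂ)⁻¹ := by
    have h6 : ((centralizer ({y} : Set G)).index : ℂ) = (p : ℂ) ^ d.factorization p * p * k := by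
      rw [hk]; push_cast; ring
    have h7 : (χ : G → ℂ) 1 = (p : ℂ) ^ d.factorization p * m := by
      rw [Blocks.Basic.irr_one_eq_charDegree χ.2, ← hd]
      exact_mod_cast congrArg (fun n : ℕ => (n : ℂ)) hm
    unfold centralChar
    rw [h6, h7]
    push_cast
    field_simp
  rw [h5]
  refine Blocks.Local.memLocalIdeal_mul_right (Blocks.Local.memLocalIdeal_mul_right
    ((Blocks.Local.memLocalIdeal_natCast_iff hM _).2 ⟨k, rfl⟩) ?_) (Blocks.Local.memLocalRing_inv_natCast hM hm')
  exact Blocks.Elementary.memLocalRing_char χ.2 y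

/-- **Characters in the principal block.** -/
theorem mem_principal_of_congr [Finite G] [Fact p.Prime] (hM : IsPModular p M) (χ : IrrCharacter G)
    (hy : ∀ y : G, y ≠ 1 → ¬ p ∣ orderOf y →
      p ^ ((Nat.card G).factorization p - (charDegree (χ : G → ℂ)).factorization p) ∣
        Nat.card (centralizer ({y} : Set G)) →
      MemLocalIdeal M (centralChar (χ : G → ℂ) y - ((centralizer ({y} : Set G)).index : ℂ))) :
    χ ∈ principalBlock M G := by
  classical
  have hp : p.Prime := Fact.out
  by_contra hn
  have := Fintype.ofFinite (ConjClasses G)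
  have hB : IsPBlock M (blockOf M (χ : G → ℂ)) := ⟨χ, rfl⟩
  have hMp : M.IsPrime := hM.2.1.isPrime
  -- the trivial character
  have hone : IsIrrCharacter G (fun _ : G => (1 : ℂ)) := Characters.Core.isIrr_one
  have hnot : (⟨fun _ => 1, hone⟩ : IrrCharacter G) ∉ blockOf M (χ : G → ℂ) := by
    intro h
    apply hn
    exact Blocks.Osima.sameBlock_symm h
  have h1 := Blocks.Osima.sum_blockCoeff_mul_centralChar_of_notMem hnot
  have h2 := Blocks.Osima.sum_blockCoeff_mul_centralChar (Blocks.Basic.mem_blockOf_self (M := M) χ)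
  have hidx : ∀ g : G, centralChar (fun _ : G => (1 : ℂ)) g = ((centralizer ({g} : Set G)).index : ℂ) := by
    intro g
    unfold centralChar
    rw [mul_one, div_one]
  apply Blocks.Local.not_memLocalIdeal_one (M := M)
  have h3 : (1 : ℂ) = ∑ c : ConjClasses G, blockCoeff (blockOf M (χ : G → ℂ)) (Quotient.out c) *
      (centralChar (χ : G → ℂ) (Quotient.out c : G) - ((centralizer ({(Quotient.out c : G)} : Set G)).index : ℂ)) := by
    rw [← sub_zero (1 : ℂ), ← h2]
    rw [← h1]
    rw [← Finset.sum_sub_distrib]
    refine Finset.sum_congr rfl fun c _ => ?_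
    rw [← hidx, mul_sub]
  rw [h3]
  refine Blocks.Local.memLocalIdeal_sum fun c _ => ?_
  by_cases h5 : p ∣ orderOf (Quotient.out c : G)
  · rw [Cfsg.Agent.H670.Hg.blockCoeff_singular hM hB h5, zero_mul]
    exact Blocks.Local.memLocalIdeal_zero
  refine Blocks.Local.memLocalIdeal_mul_left (Blocks.Osima.memLocalRing_blockCoeff hM hB _) ?_
  by_cases h6 : (Quotient.out c : G) = 1
  · rw [h6]
    have h7 : centralizer ({(1 : G)} : Set G) = ⊤ := by
      rw [eq_top_iff]
      intro x _
      rw [mem_centralizer_singleton_iff]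
      simp
    have h8 : (χ : G → ℂ) 1 ≠ 0 := by
      rw [Blocks.Basic.irr_one_eq_charDegree χ.2]
      exact_mod_cast (Blocks.Basic.charDegree_pos χ.2).ne'
    unfold centralChar
    rw [h7, Subgroup.index_top, Nat.cast_one, one_mul, div_self h8, sub_self]
    exact Blocks.Local.memLocalIdeal_zero
  · by_cases h7 : p ^ ((Nat.card G).factorization p - (charDegree (χ : G → ℂ)).factorization p) ∣
        Nat.card (centralizer ({(Quotient.out c : G)} : Set G))
    · exact hy _ h6 h5 h7
    · refine Blocks.Local.memLocalIdeal_sub (centralChar_mem hM χ h7) ?_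
      rw [Blocks.Local.memLocalIdeal_natCast_iff hM]
      by_contra h8
      apply h7
      have h9 := (centralizer ({(Quotient.out c : G)} : Set G)).card_mul_index
      have h10 : (Nat.card G).factorization p ≤ (Nat.card (centralizer ({(Quotient.out c : G)} : Set G))).factorization p := by
        rw [← h9, Nat.factorization_mul Nat.card_pos.ne' (Subgroup.index_ne_zero_of_finite), Finsupp.add_apply,
          Nat.factorization_eq_zero_of_not_dvd h8, add_zero]
      exact (pow_dvd_pow p (by omega)).trans ((Nat.Prime.pow_dvd_iff_le_factorization hp Nat.card_pos.ne').2 h10)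

end Cfsg.Agent.H300.HT
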